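import Cfsg.Agent.H238.ExcCore
import Cfsg.Agent.BpExc.Sig
import Cfsg.Agent.Nodes.Unique
import Cfsg.Agent.Nodes.Slope

/-!
# Fixed points of a frame automorphism on a product of root groups (helper64)

`D.group k`, `k` algebraically closed and locally finite of characteristic `r`, `τ` a frame automorphism (for `g`) with
`IsFrob r e τ`, `e > 0`, `S` a `g`-invariant set of positive roots closed under positive integral combinations:
`card_fixed` : `r ^ |S| ≤ |Sup (XX) S ∩ C(τ)|`.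
-/

set_option autoImplicit false
set_option linter.unusedSectionVars false

namespace Cfsg.Agent.H64.FixCount

open CoxeterSystem Cfsg Cfsg.Lie Cfsg.Lie.ChevalleyDatum
open Cfsg.Agent.ChevalleyStructure Cfsg.Agent.ChevalleyStructure.Elts Cfsg.Agent.ChevalleyStructure.CoxeterGeom
  Cfsg.Agent.ChevalleyStructure.CoxeterGeomTypes Cfsg.Agent.ChevalleyStructure.NPerm
open Cfsg.Agent.Tits.Roots Cfsg.Agent.Tits.Core Cfsg.Agent.Nodes Cfsg.Agent.Nodes.Reps Cfsg.Agent.Nodes.BNOf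
  Cfsg.Agent.Nodes.RGDChev Cfsg.Agent.Nodes.Bruhat Cfsg.Agent.Nodes.NormalForm Cfsg.Agent.Nodes.Coroot
open Cfsg.Agent.KFacts.RgdField Cfsg.Agent.KFacts.RgdChevCoord
open Cfsg.Agent.BpExc Cfsg.Agent.BpExc.TorCent Cfsg.Agent.BpExc.TorChev Cfsg.Agent.BpExc.Tow
  Cfsg.Agent.BpExc.TowChev Cfsg.Agent.BpExc.Fr Cfsg.Agent.BpExc.Pair Cfsg.Agent.BpExc.LangFr Cfsg.Agent.GpExc.Field
  Cfsg.Agent.BpExc.NInst Cfsg.Agent.H238
open scoped commutatorElement

universe u

/-! ### extreme roots -/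

section Comb

variable {l : ℕ} {M : CoxeterMatrix (Fin l)} {W : Type*} [Group W] {cs : CoxeterSystem M W}
  {A : Fin l → Fin l → ℤ} {h : IsCartan M A}

/-- the extreme elements of a set of roots -/
def Ext (S : Set (Fin l → ℤ)) : Set (Fin l → ℤ) :=
  {b | b ∈ S ∧ ∃ f : (Fin l → ℤ) →+ ℤ, f b = 0 ∧ ∀ x ∈ S, x ≠ b → f x < 0}

theorem exists_ext [Finite W] {S : Set (Fin l → ℤ)} (hpos : S ⊆ RGD.Pos cs h) (hne : S.Nonempty) :
    (Ext S).Nonempty := by
  have hroot : ∀ x ∈ S, IsRoot cs h x := fun x hx => (hpos hx).1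
  have hfin : S.Finite := (RGD.finite_roots (cs := cs) (h := h)).subset hroot
  have hl : ∀ x ∈ S, 0 < Slope.htHom x := fun x hx => RGD.ht_pos (hroot x hx) (hpos hx).2
  obtain ⟨mu, hmu⟩ := Slope.exists_sep (cs := cs) (h := h) hroot Slope.htHom hl
  obtain ⟨r, hr, hmax⟩ := Slope.exists_extreme hfin hne Slope.htHom 0 mu hl
  refine ⟨r, hr, (Slope.htHom r) • mu - (mu r) • Slope.htHom, ?_, fun x hx hxr => ?_⟩
  · show (Slope.htHom r) • mu r - (mu r) • Slope.htHom r = 0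
    rw [smul_eq_mul, smul_eq_mul, mul_comm, sub_self]
  · show (Slope.htHom r) • mu x - (mu r) • Slope.htHom x < 0
    rw [smul_eq_mul, smul_eq_mul]
    have h1 : mu x * Slope.htHom r ≤ mu r * Slope.htHom x := by
      rcases hmax x hx with h2 | ⟨-, h2⟩
      · simp at h2
      · exact h2
    have h2 : mu x * Slope.htHom r ≠ mu r * Slope.htHom x := fun e => hxr (hmu x hx r hr e)
    have h3 := lt_of_le_of_ne h1 h2
    rw [mul_comm] at h3
    omega

theorem ext_map {S : Set (Fin l → ℤ)} (hfin : S.Finite) {g : (Fin l → ℤ) ≃+ (Fin l → ℤ)} (hg : ∀ a ∈ S, g a ∈ S)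
    {b : Fin l → ℤ} (hb : b ∈ Ext S) : g b ∈ Ext S := by
  obtain ⟨hb, f, hf0, hf⟩ := hb
  refine ⟨hg b hb, f.comp g.symm.toAddMonoidHom, ?_, fun x hx hxb => ?_⟩
  · show f (g.symm (g b)) = 0
    rw [AddEquiv.symm_apply_apply, hf0]
  · show f (g.symm x) < 0
    have h1 : g '' S = S := by
      apply Set.eq_of_subset_of_ncard_le _ _ hfin
      · rintro _ ⟨a, ha, rfl⟩; exact hg a ha
      · rw [Set.ncard_image_of_injective S g.injective]
    rw [← h1] at hx
    obtain ⟨a, ha, rfl⟩ := hx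
    rw [AddEquiv.symm_apply_apply]
    exact hf a ha fun e => hxb (by rw [e])

theorem ext_iter {S : Set (Fin l → ℤ)} (hfin : S.Finite) {g : (Fin l → ℤ) ≃+ (Fin l → ℤ)} (hg : ∀ a ∈ S, g a ∈ S)
    {b : Fin l → ℤ} (hb : b ∈ Ext S) (i : ℕ) : g^[i] b ∈ Ext S := by
  induction i with
  | zero => exact hb
  | succ i ih => rw [Function.iterate_succ_apply']; exact ext_map hfin hg ih

theorem ext_comb {S : Set (Fin l → ℤ)} {b : Fin l → ℤ} (hb : b ∈ Ext S) {x y : Fin l → ℤ} (hx : x ∈ S) (hy : y ∈ S)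
    {i j : ℕ} (hi : 0 < i) (hj : 0 < j) (e : b = i • x + j • y) : x = b ∧ y = b := by
  obtain ⟨hb, f, hf0, hf⟩ := hb
  have h1 : f b = i * f x + j * f y := by
    conv_lhs => rw [e]
    rw [map_add, map_nsmul, map_nsmul, nsmul_eq_mul, nsmul_eq_mul]
  have hi' : (0 : ℤ) < i := by exact_mod_cast hi
  have hj' : (0 : ℤ) < j := by exact_mod_cast hj
  have hle : ∀ x ∈ S, f x ≤ 0 := by
    intro x hx
    by_cases hxb : x = b
    · rw [hxb, hf0]
    · exact (hf x hx hxb).le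
  have hx0 := hle x hx
  have hy0 := hle y hy
  constructor
  · by_contra hne
    have := hf x hx hne
    nlinarith
  · by_contra hne
    have := hf y hy hne
    nlinarith

end Comb

/-! ### the equation `c s ^ q = s` -/

theorem card_eqn {k : Type*} [Field k] [IsAlgClosed k] {q : ℕ} (hq : 1 < q) (hqk : (q : k) = 0) {c : k} (hc : c ≠ 0) :
    Nat.card {s : k // c * s ^ q = s} = q := by
  classical
  obtain ⟨P, hP⟩ : ∃ P : Polynomial k, P = Polynomial.C c * Polynomial.X ^ q - Polynomial.X := ⟨_, rfl⟩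
  have hdeg : P.natDegree = q := by
    rw [hP]
    rw [Polynomial.natDegree_sub_eq_left_of_natDegree_lt]
    · exact Polynomial.natDegree_C_mul_X_pow q c hc
    · rw [Polynomial.natDegree_C_mul_X_pow q c hc, Polynomial.natDegree_X]
      exact hq
  have hne : P ≠ 0 := by
    rintro h0
    rw [h0, Polynomial.natDegree_zero] at hdeg
    omega
  have hsep : P.Separable := by
    rw [Polynomial.separable_def]
    have h1 : Polynomial.derivative P = -1 := by
      rw [hP, Polynomial.derivative_sub, Polynomial.derivative_C_mul_X_pow, Polynomial.derivative_X, hqk, mul_zero,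
        Polynomial.C_0, zero_mul, zero_sub]
    rw [h1]
    exact isCoprime_one_right.neg_right
  have h2 : Fintype.card (P.rootSet k) = P.natDegree := Polynomial.card_rootSet_eq_natDegree hsep
    (IsAlgClosed.splits _)
  conv_rhs => rw [← hdeg, ← h2, ← Nat.card_eq_fintype_card]
  refine Nat.card_congr (Equiv.subtypeEquivRight fun s => ?_)
  rw [Polynomial.mem_rootSet]
  constructor
  · intro h
    refine ⟨hne, ?_⟩
    rw [hP, map_sub, map_mul, map_pow, Polynomial.aeval_C, Polynomial.aeval_X]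
    show c * s ^ q - s = 0
    rw [h, sub_self]
  · rintro ⟨-, h⟩
    rw [hP, map_sub, map_mul, map_pow, Polynomial.aeval_C, Polynomial.aeval_X] at h
    exact sub_eq_zero.1 h

/-! ### groups -/

section Grp

variable {Y : Type*} [Group Y]

theorem op_comm {H : Subgroup Y} {τ : MulAut Y} {x : Y} {m : ℕ}
    (hN : ∀ i < m, (τ ^ i) x ∈ Subgroup.normalizer (H : Set Y))
    (hc : ∀ i < m, ⁅(τ ^ i) x, x⁆ ∈ H) :
    OrbitProd.op τ x m ∈ Subgroup.normalizer (H : Set Y) ∧ ⁅OrbitProd.op τ x m, x⁆ ∈ H := by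
  induction m with
  | zero =>
    rw [OrbitProd.op_zero]
    exact ⟨one_mem _, by rw [commutatorElement_one_left]; exact one_mem _⟩
  | succ m ih =>
    obtain ⟨h1, h2⟩ := ih (fun i hi => hN i (by omega)) (fun i hi => hc i (by omega))
    rw [OrbitProd.op_succ]
    refine ⟨mul_mem h1 (hN m (by omega)), ?_⟩
    have e : ⁅OrbitProd.op τ x m * (τ ^ m) x, x⁆ =
        (OrbitProd.op τ x m * ⁅(τ ^ m) x, x⁆ * (OrbitProd.op τ x m)⁻¹) * ⁅OrbitProd.op τ x m, x⁆ := by
      rw [commutatorElement_def, commutatorElement_def, commutatorElement_def]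
      group
    rw [e]
    exact mul_mem ((Subgroup.mem_normalizer_iff.1 h1 _).1 (hc m (by omega))) h2

end Grp

section Chev

variable {D : ChevalleyDatum} {l : ℕ} {M : CoxeterMatrix (Fin l)} (hp : IsType D l M) {k : Type u} [Field k]
  {W : Type*} [Group W] (cs : CoxeterSystem M W)

include hp cs

theorem le_norm {c : Fin l → ℤ} (hc : c ∈ RGD.Pos cs hp.isCartan) {P : Set (Fin l → ℤ)}
    (hP : P ⊆ RGD.Pos cs hp.isCartan) (h : ∀ y ∈ P, y ≠ c → CommZ.combZ cs hp c y ⊆ P) :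
    XX D l k c ≤ Subgroup.normalizer (RGD.Sup (XX D l k) P : Set ↥(D.group k)) := by
  have key : ∀ x ∈ XX D l k c, ∀ v ∈ RGD.Sup (XX D l k) P, x * v * x⁻¹ ∈ RGD.Sup (XX D l k) P := by
    intro x hx v hv
    have h1 : RGD.Sup (XX D l k) P ≤ (RGD.Sup (XX D l k) P).comap (MulAut.conj x).toMonoidHom := by
      refine RGD.Sup_le fun y hy w hw => ?_
      show x * w * x⁻¹ ∈ RGD.Sup (XX D l k) P
      by_cases hyc : y = c
      · subst hyc
        exact RGD.le_Sup hy (mul_mem (mul_mem hx hw) (inv_mem hx))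
      · have hne : c ≠ -y := by
          intro e
          refine hc.1.not_pos_neg hc.2 ?_
          rw [e]
          exact neg_nonpos.2 (hP hy).2
        have h2 := CommZ.comm_mem_Z hp cs hc.1 (hP hy).1 (Ne.symm hyc) hne hx hw
        have e : x * w * x⁻¹ = ⁅x, w⁆ * w := by rw [commutatorElement_def]; group
        rw [e]
        exact mul_mem (RGD.Sup_mono (h y hy hyc) h2) (RGD.le_Sup hy hw)
    exact h1 hv
  intro x hx
  rw [Subgroup.mem_normalizer_iff]
  intro v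
  refine ⟨key x hx v, fun hv => ?_⟩
  have h3 := key x⁻¹ (inv_mem hx) _ hv
  have e : x⁻¹ * (x * v * x⁻¹) * x⁻¹⁻¹ = v := by group
  rwa [e] at h3

/-- an extreme root group meets the product of the others trivially -/
theorem inf_ext (hk : LocFin k) (r : ℕ) [Fact r.Prime] [CharP k r] {S : Set (Fin l → ℤ)}
    (hpos : S ⊆ RGD.Pos cs hp.isCartan) {b : Fin l → ℤ} (hb : b ∈ Ext S) {y : ↥(D.group k)}
    (h1 : y ∈ XX D l k b) (h2 : y ∈ RGD.Sup (XX D l k) (S \ {b})) : y = 1 := by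
  have := finite_W hp cs
  have H := tow (k := k) hp cs hk r
  have hXL := XL_eq (k := k) hp hk
  obtain ⟨hbS, f, hf0, hf⟩ := hb
  have hbr := hpos hbS
  rw [← hXL] at h1 h2
  obtain ⟨i, hi⟩ := H.mem_XL.1 h1
  obtain ⟨j, hj⟩ := H.mem_Sup.1 h2
  obtain ⟨c, hc1, hc2⟩ := H.dir i j
  have g1 : y ∈ RGD.Sup (Xj hp c) {b} := RGD.le_Sup (Set.mem_singleton b) (H.monoX _ hc1 hi)
  let P : Set (Fin l → ℤ) := {a | a ∈ RGD.Pos cs hp.isCartan ∧ f a < 0}
  have g2 : y ∈ RGD.Sup (Xj hp c) P :=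
    RGD.Sup_mono (S := S \ {b}) (S' := P) (fun a ha => ⟨hpos ha.1, hf a ha.1 ha.2⟩) (H.mono_Sup _ hc2 hj)
  have g3 := Unique.inf_eq (H.rgd c) (S := {b}) (S' := P) (Set.singleton_subset_iff.2 hbr) (fun a ha => ha.1)
    (by
      rintro x rfl y rfl z hz
      exact Unique.btwn_self hbr.1 hz)
    (by
      rintro x hx y hy z hz
      refine ⟨Unique.closed_pos x hx.1 y hy.1 z hz, ?_⟩
      have := Slope.btwn_pos' hz (-f) (by simpa using hx.2) (by simpa using hy.2.le)
      simpa using this)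
  have g4 : y ∈ RGD.Sup (Xj hp c) {b} ⊓ RGD.Sup (Xj hp c) P := ⟨g1, g2⟩
  have g5 : ({b} : Set (Fin l → ℤ)) ∩ P = ∅ := by
    rw [Set.eq_empty_iff_forall_notMem]
    rintro x ⟨rfl, -, hx⟩
    rw [hf0] at hx
    exact lt_irrefl _ hx
  rw [g3, g5] at g4
  have g6 : RGD.Sup (Xj (k := k) hp c) ∅ = ⊥ := by
    rw [eq_bot_iff]
    exact RGD.Sup_le fun a ha => absurd ha (Set.notMem_empty a)
  rwa [g6, Subgroup.mem_bot] at g4

variable {r e : ℕ} [Fact r.Prime] [CharP k r] {τ : MulAut ↥(D.group k)} {g : (Fin l → ℤ) ≃+ (Fin l → ℤ)}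

theorem pow_mem_XX (F : Fr cs hp.isCartan (TT D k) (XX D l k) τ g) {a : Fin l → ℤ} (ha : IsRoot cs hp.isCartan a)
    {y : ↥(D.group k)} (hy : y ∈ XX D l k a) (i : ℕ) : (τ ^ i) y ∈ XX D l k (g^[i] a) := by
  obtain ⟨g', F', hg'⟩ := F.pow i
  have h1 := (F'.map a ha y).2 hy
  rwa [hg'] at h1

/-- **A fixed point for every fixed element of an extreme root group.** -/
theorem exists_lift [IsAlgClosed k] (he : 0 < e) (hτ : IsFrob r e τ)
    (F : Fr cs hp.isCartan (TT D k) (XX D l k) τ g) {S : Set (Fin l → ℤ)} (hfin : S.Finite)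
    (hpos : S ⊆ RGD.Pos cs hp.isCartan) (hc : ∀ x ∈ S, ∀ y ∈ S, CommZ.combZ cs hp x y ⊆ S) (hg : ∀ a ∈ S, g a ∈ S)
    {b : Fin l → ℤ} (hb : b ∈ Ext S) {m : ℕ} (hm : 0 < m) (hmb : g^[m] b = b) (hmin : ∀ i, 0 < i → i < m → g^[i] b ≠ b)
    {S' : Set (Fin l → ℤ)} (hS' : S' = S \ {a | ∃ i, a = g^[i] b}) (hg' : ∀ a ∈ S', g a ∈ S')
    {x : ↥(D.group k)} (hx : x ∈ XX D l k b) (hxm : (τ ^ m) x = x) :
    ∃ f ∈ RGD.Sup (XX D l k) S, τ f = f ∧ ∃ w ∈ RGD.Sup (XX D l k) (S \ {b}), f = x * w := by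
  have hbr := hpos hb.1
  have hext : ∀ i, g^[i] b ∈ Ext S := ext_iter hfin hg hb
  have hS'S : S' ⊆ S := by rw [hS']; exact Set.sdiff_subset
  have hnot : ∀ {x y : Fin l → ℤ}, x ∈ S → y ∈ S → x ≠ y → CommZ.combZ cs hp x y ⊆ S' := by
    rintro x y hx hy hxy z ⟨hz, i, j, hi, hj, hzz⟩
    rw [hS']
    refine ⟨hc x hx y hy ⟨hz, i, j, hi, hj, hzz⟩, ?_⟩
    rintro ⟨n, hn⟩
    rw [hn] at hzz
    obtain ⟨h1, h2⟩ := ext_comb (hext n) hx hy hi hj hzz
    exact hxy (h1.trans h2.symm)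
  have hN : ∀ i, (τ ^ i) x ∈ Subgroup.normalizer (RGD.Sup (XX D l k) S' : Set ↥(D.group k)) := by
    intro i
    refine le_norm (k := k) hp cs (hpos (hext i).1) (hS'S.trans hpos) (fun y hy hyc => ?_)
      (pow_mem_XX hp cs F hbr.1 hx i)
    exact hnot (hext i).1 (hS'S hy) (Ne.symm hyc)
  have hcm : ∀ i < m, ⁅(τ ^ i) x, x⁆ ∈ RGD.Sup (XX D l k) S' := by
    intro i hi
    rcases Nat.eq_zero_or_pos i with rfl | h0
    · rw [pow_zero, MulAut.one_apply, commutatorElement_self]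
      exact one_mem _
    · have h1 := hmin i h0 hi
      have hne : g^[i] b ≠ -b := by
        intro e
        refine (hpos (hext i).1).1.not_pos_neg (hpos (hext i).1).2 ?_
        rw [e]
        exact neg_nonpos.2 hbr.2
      exact RGD.Sup_mono (hnot (hext i).1 hb.1 h1)
        (CommZ.comm_mem_Z hp cs (hpos (hext i).1).1 hbr.1 h1 hne (pow_mem_XX hp cs F hbr.1 hx i) hx)
  obtain ⟨hy1, hy2⟩ := op_comm (H := RGD.Sup (XX D l k) S') (fun i _ => hN i) hcm
  obtain ⟨y, hy⟩ : ∃ y, y = OrbitProd.op τ x m := ⟨_, rfl⟩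
  rw [← hy] at hy1 hy2
  have hτy : τ y = x⁻¹ * y * x := by
    have h1 : OrbitProd.op τ x m * (τ ^ m) x = x * τ (OrbitProd.op τ x m) := by
      rw [← OrbitProd.op_succ, OrbitProd.op_succ']
    rw [hxm, ← hy] at h1
    rw [mul_assoc, h1, inv_mul_cancel_left]
  have hm0 : y⁻¹ * τ y ∈ RGD.Sup (XX D l k) S' := by
    have e1 : y⁻¹ * τ y = (x * y)⁻¹ * ⁅y, x⁆ * (x * y)⁻¹⁻¹ := by
      rw [hτy, commutatorElement_def]; group
    rw [e1]
    have h2 : (x * y)⁻¹ ∈ Subgroup.normalizer (RGD.Sup (XX D l k) S' : Set ↥(D.group k)) := by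
      refine inv_mem (mul_mem ?_ hy1)
      have := hN 0
      rwa [pow_zero, MulAut.one_apply] at this
    exact (Subgroup.mem_normalizer_iff.1 h2 _).1 hy2
  obtain ⟨v, hv, hv2⟩ := lang_fr hp cs he hτ F (S := S') (fun a ha => (hpos (hS'S ha)).1) hg' hm0
  have hτv : τ v = v * (y⁻¹ * τ y) := by rw [hv2, mul_inv_cancel_left]
  obtain ⟨m', rfl⟩ : ∃ m', m = m' + 1 := ⟨m - 1, by omega⟩
  have hye : y = x * τ (OrbitProd.op τ x m') := by rw [hy, OrbitProd.op_succ']
  have hw1 : τ (OrbitProd.op τ x m') ∈ RGD.Sup (XX D l k) (S \ {b}) := by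
    have h1 : OrbitProd.op τ x m' ∈ (RGD.Sup (XX D l k) (S \ {b})).comap τ.toMonoidHom := by
      refine OrbitProd.op_mem fun j hj => ?_
      show τ ((τ ^ j) x) ∈ RGD.Sup (XX D l k) (S \ {b})
      have h2 := pow_mem_XX hp cs F hbr.1 hx (j + 1)
      rw [pow_succ', MulAut.mul_apply] at h2
      exact RGD.le_Sup (S := S \ {b}) ⟨(hext (j + 1)).1, hmin (j + 1) (by omega) (by omega)⟩ h2
    exact h1
  have hbS' : S' ⊆ S \ {b} := by
    intro a ha
    refine ⟨hS'S ha, ?_⟩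
    rintro rfl
    rw [hS'] at ha
    exact ha.2 ⟨0, rfl⟩
  have hw2 : v⁻¹ ∈ RGD.Sup (XX D l k) (S \ {b}) := inv_mem (RGD.Sup_mono hbS' hv)
  refine ⟨y * v⁻¹, ?_, ?_, τ (OrbitProd.op τ x m') * v⁻¹, mul_mem hw1 hw2, by rw [hye, mul_assoc]⟩
  · rw [hye]
    refine mul_mem (mul_mem (RGD.le_Sup hb.1 hx) (RGD.Sup_mono Set.sdiff_subset hw1)) (RGD.Sup_mono Set.sdiff_subset hw2)
  · rw [map_mul, map_inv, hτv]
    group

/-- **The number of fixed points.** -/
theorem card_fixed [IsAlgClosed k] (hk : LocFin k) (he : 0 < e) (hτ : IsFrob r e τ)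
    (F : Fr cs hp.isCartan (TT D k) (XX D l k) τ g) : ∀ (N : ℕ) (S : Set (Fin l → ℤ)), S.ncard = N →
    S ⊆ RGD.Pos cs hp.isCartan → (∀ x ∈ S, ∀ y ∈ S, CommZ.combZ cs hp x y ⊆ S) → (∀ a ∈ S, g a ∈ S) →
    r ^ N ≤ Nat.card ↥(RGD.Sup (XX D l k) S ⊓ fixedSubgroup τ) := by
  have := finite_W hp cs
  have hff : Finite ↥(fixedSubgroup τ) := Sig.finite_fixed hk he hτ
  have hfin2 : ∀ H : Subgroup ↥(D.group k), Finite ↥(H ⊓ fixedSubgroup τ) := fun H =>
    Finite.of_injective (Subgroup.inclusion (inf_le_right : H ⊓ fixedSubgroup τ ≤ fixedSubgroup τ))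
      (Subgroup.inclusion_injective _)
  intro N
  induction N using Nat.strong_induction_on with
  | _ N ih =>
    intro S hN hpos hc hg
    have hfin : S.Finite := (RGD.finite_roots (cs := cs) (h := hp.isCartan)).subset fun x hx => (hpos hx).1
    rcases Set.eq_empty_or_nonempty S with rfl | hne
    · rw [Set.ncard_empty] at hN
      rw [← hN, pow_zero]
      have := hfin2 (RGD.Sup (XX D l k) ∅)
      exact Nat.card_pos
    · obtain ⟨b, hb⟩ := exists_ext hpos hne
      have hbr := hpos hb.1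
      obtain ⟨N0, hN0, hper⟩ := Orbit.exists_period F.root
      classical
      have hex : ∃ m, 0 < m ∧ g^[m] b = b := ⟨N0, hN0, hper b hbr.1⟩
      obtain ⟨m, hm⟩ : ∃ m, m = Nat.find hex := ⟨_, rfl⟩
      obtain ⟨hm0, hmb⟩ : 0 < m ∧ g^[m] b = b := by rw [hm]; exact Nat.find_spec hex
      have hmin : ∀ i, 0 < i → i < m → g^[i] b ≠ b := fun i h0 hi hcon => by
        rw [hm] at hi
        exact Nat.find_min hex hi ⟨h0, hcon⟩
      have hext : ∀ i, g^[i] b ∈ Ext S := ext_iter hfin hg hb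
      obtain ⟨O, hO⟩ : ∃ O : Set (Fin l → ℤ), O = {a | ∃ i, a = g^[i] b} := ⟨_, rfl⟩
      have hOm : ∀ i, g^[i] b ∈ O := fun i => by rw [hO]; exact ⟨i, rfl⟩
      have hOS : O ⊆ S := by
        rw [hO]
        rintro _ ⟨i, rfl⟩
        exact (hext i).1
      have hOcard : O.ncard ≤ m := by
        have h1 : O ⊆ (fun i => g^[i] b) '' (Set.Iio m) := by
          rw [hO]
          rintro _ ⟨i, rfl⟩
          refine ⟨i % m, Nat.mod_lt _ hm0, ?_⟩
          have h2 : Function.IsPeriodicPt g m b := hmb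
          exact h2.iterate_mod_apply i
        refine (Set.ncard_le_ncard h1 ((Set.finite_Iio m).image _)).trans ?_
        refine (Set.ncard_image_le (Set.finite_Iio m)).trans ?_
        rw [Set.ncard_eq_toFinset_card', Set.toFinset_Iio, Nat.card_Iio]
      have hOne : 0 < O.ncard := (Set.ncard_pos (hfin.subset hOS)).2 ⟨b, hOm 0⟩
      obtain ⟨S', hS'⟩ : ∃ S' : Set (Fin l → ℤ), S' = S \ {a | ∃ i, a = g^[i] b} := ⟨_, rfl⟩
      have hS'O : S' = S \ O := by rw [hS', hO]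
      have hS'S : S' ⊆ S := by rw [hS']; exact Set.sdiff_subset
      have hS'card : S'.ncard + O.ncard = N := by
        rw [hS'O, ← hN]
        exact Set.ncard_sdiff_add_ncard_of_subset hOS hfin
      have hg' : ∀ a ∈ S', g a ∈ S' := by
        intro a ha
        rw [hS'O] at ha ⊢
        refine ⟨hg a ha.1, fun h1 => ha.2 ?_⟩
        rw [hO] at h1
        obtain ⟨i, hi⟩ := h1
        have h2 : g^[i] b = g (g^[i + (m - 1)] b) := by
          rw [← Function.iterate_succ_apply' g, show (i + (m - 1)).succ = i + m by omega,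
            Function.iterate_add_apply, hmb]
        rw [h2] at hi
        rw [g.injective hi]
        exact hOm _
      have hc' : ∀ x ∈ S', ∀ y ∈ S', CommZ.combZ cs hp x y ⊆ S' := by
        rintro x hx y hy z ⟨hz, i, j, hi, hj, hzz⟩
        rw [hS'O]
        refine ⟨hc x (hS'S hx) y (hS'S hy) ⟨hz, i, j, hi, hj, hzz⟩, fun h1 => ?_⟩
        rw [hO] at h1
        obtain ⟨n, hn⟩ := h1
        rw [hn] at hzz
        obtain ⟨h2, -⟩ := ext_comb (hext n) (hS'S hx) (hS'S hy) hi hj hzz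
        rw [hS'O] at hx
        exact hx.2 (h2 ▸ hOm n)
      have key := ih S'.ncard (by omega) S' rfl (hS'S.trans hpos) hc' hg'
      -- the fixed elements of the root group
      obtain ⟨g', F', hgm⟩ := F.pow m
      obtain ⟨c, hc0, hcf⟩ := HX.fr_xc hp cs (hτ.pow m) F' hbr.1
      rw [hgm, hmb] at hcf
      have hme : m * e ≠ 0 := Nat.mul_ne_zero hm0.ne' he.ne'
      have hq1 : 1 < r ^ (m * e) := Nat.one_lt_pow hme (Fact.out : r.Prime).one_lt
      have hT : Nat.card {s : k // c * s ^ r ^ (m * e) = s} = r ^ (m * e) := by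
        refine card_eqn hq1 ?_ hc0
        rw [Nat.cast_pow, CharP.cast_eq_zero, zero_pow hme]
      have hlift : ∀ s : {s : k // c * s ^ r ^ (m * e) = s}, ∃ f ∈ RGD.Sup (XX D l k) S, τ f = f ∧
          ∃ w ∈ RGD.Sup (XX D l k) (S \ {b}), f = xc hp b s.1 * w := by
        intro s
        refine exists_lift hp cs he hτ F hfin hpos hc hg hb hm0 hmb hmin hS' hg'
          ((ExcCore.mem_XX_iff hp cs hbr.1).2 ⟨s.1, rfl⟩) ?_
        rw [hcf, s.2]
      choose f hf1 hf2 w hw hf3 using hlift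
      have hS'b : S' ⊆ S \ {b} := by
        intro a ha
        refine ⟨hS'S ha, ?_⟩
        rintro rfl
        rw [hS'O] at ha
        exact ha.2 (hOm 0)
      let Φ : {s : k // c * s ^ r ^ (m * e) = s} × ↥(RGD.Sup (XX D l k) S' ⊓ fixedSubgroup τ) →
          ↥(RGD.Sup (XX D l k) S ⊓ fixedSubgroup τ) := fun q =>
        ⟨f q.1 * q.2.1, mul_mem ⟨hf1 q.1, hf2 q.1⟩ ⟨RGD.Sup_mono hS'S q.2.2.1, q.2.2.2⟩⟩
      have hΦ : Function.Injective Φ := by
        rintro ⟨s, v, hv⟩ ⟨t, v', hv'⟩ e1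
        have e2 : f s * v = f t * v' := congrArg Subtype.val e1
        have e3 : (xc hp b t.1)⁻¹ * xc hp b s.1 = w t * v' * v⁻¹ * (w s)⁻¹ := by
          rw [hf3 s, hf3 t] at e2
          have e4 : xc hp b s.1 = xc hp b t.1 * w t * v' * v⁻¹ * (w s)⁻¹ := by
            rw [← e2]; group
          rw [e4]; group
        have e5 : (xc hp b t.1)⁻¹ * xc hp b s.1 = 1 := by
          refine inf_ext hp cs hk r hpos hb ?_ ?_
          · exact mul_mem (inv_mem ((ExcCore.mem_XX_iff hp cs hbr.1).2 ⟨_, rfl⟩))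
              ((ExcCore.mem_XX_iff hp cs hbr.1).2 ⟨_, rfl⟩)
          · rw [e3]
            exact mul_mem (mul_mem (mul_mem (hw t) (RGD.Sup_mono hS'b hv'.1)) (inv_mem (RGD.Sup_mono hS'b hv.1)))
              (inv_mem (hw s))
        have e6 : s = t := by
          apply Subtype.ext
          obtain ⟨n, hn, hnb⟩ := (isRoot_iff hp cs b).1 hbr.1
          have e7 := inv_mul_eq_one.1 e5
          rw [← hnb] at e7
          exact (xc_inj hp hn e7).symm
        subst e6
        have e8 : v = v' := mul_left_cancel e2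
        subst e8
        rfl
      have hfin3 := hfin2 (RGD.Sup (XX D l k) S)
      have h1 := Nat.card_le_card_of_injective Φ hΦ
      rw [Nat.card_prod, hT] at h1
      refine le_trans ?_ h1
      calc r ^ N = r ^ O.ncard * r ^ S'.ncard := by rw [← pow_add, ← hS'card, add_comm]
        _ ≤ r ^ (m * e) * Nat.card ↥(RGD.Sup (XX D l k) S' ⊓ fixedSubgroup τ) := by
          refine Nat.mul_le_mul (Nat.pow_le_pow_right (Fact.out : r.Prime).pos ?_) key
          exact hOcard.trans (Nat.le_mul_of_pos_right m he)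

end Chev

end Cfsg.Agent.H64.FixCount
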