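import Cfsg.Agent.H238.SolE
import Cfsg.Agent.H238.Amb
import Cfsg.Agent.H226.KList
import Cfsg.Agent.H64.FixCount

/-!
# Centralizers of elements of order three in `F₄(2)` (helper64)

* `AmbS.dvd_card` : `z ∈ K₀` of prime order `p ≠ r`, `K₀` large in the fixed points of `σ` on `D.group k`, `t` toral,
  conjugate to `z`: `r ^ N ∣ |C(z)|`, `N` the number of positive roots of `Sx t`;
* `f4_two` : `2 ^ 6` divides the order of the centralizer of an element of order three of `F₄(2)`.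
-/

set_option autoImplicit false
set_option linter.unusedSectionVars false

namespace Cfsg.Agent.H64.CentTwo

open CoxeterSystem Cfsg Cfsg.Lie Cfsg.Lie.ChevalleyDatum
open Cfsg.Agent.ChevalleyStructure Cfsg.Agent.ChevalleyStructure.Elts Cfsg.Agent.ChevalleyStructure.CoxeterGeom
  Cfsg.Agent.ChevalleyStructure.CoxeterGeomTypes Cfsg.Agent.ChevalleyStructure.NPerm
open Cfsg.Agent.Tits.Roots Cfsg.Agent.Tits.Core Cfsg.Agent.Nodes Cfsg.Agent.Nodes.Reps Cfsg.Agent.Nodes.BNOf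
  Cfsg.Agent.Nodes.RGDChev Cfsg.Agent.Nodes.Bruhat Cfsg.Agent.Nodes.NormalForm Cfsg.Agent.Nodes.Coroot
open Cfsg.Agent.KFacts.RgdField Cfsg.Agent.KFacts.RgdChevCoord
open Cfsg.Agent.BpExc Cfsg.Agent.BpExc.TorCent Cfsg.Agent.BpExc.TorChev Cfsg.Agent.BpExc.Tow
  Cfsg.Agent.BpExc.TowChev Cfsg.Agent.BpExc.Fr Cfsg.Agent.BpExc.Pair Cfsg.Agent.BpExc.LangFr Cfsg.Agent.GpExc.Field
  Cfsg.Agent.BpExc.NInst Cfsg.Agent.BpExc.Asm Cfsg.Agent.H238 Cfsg.Agent.H238.SolMain Cfsg.Agent.H238.SolE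
  Cfsg.Agent.H238.CountTwo Cfsg.Agent.H238.CountS Cfsg.Agent.ChevalleyStructure.RootVec Cfsg.Agent.H64.FixCount
open scoped commutatorElement

universe u

section Chev

variable {D : ChevalleyDatum} {l : ℕ} {M : CoxeterMatrix (Fin l)} (hp : IsType D l M) {k : Type u} [Field k]
  {W : Type*} [Group W] (cs : CoxeterSystem M W)

include hp cs

/-- the fixed points in the product of the positive root groups of `Sx t` -/
theorem exists_fix_group [IsAlgClosed k] (hk : LocFin k) {r e : ℕ} [Fact r.Prime] [CharP k r] (he : 0 < e)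
    {t : ↥(D.group k)} (ht : t ∈ TT D k) {τ : MulAut ↥(D.group k)} (hτ : IsFrob r e τ)
    {g : (Fin l → ℤ) ≃+ (Fin l → ℤ)} (F : Fr cs hp.isCartan (TT D k) (XX D l k) τ g) (hτt : τ t = t)
    (hpos : ∀ a ∈ Sx cs hp.isCartan (ch hp) t, 0 ≤ a → 0 ≤ g a) :
    ∃ (Q : Subgroup ↥(D.group k)) (j : ℕ), {a | a ∈ Sx cs hp.isCartan (ch hp) t ∧ 0 ≤ a}.ncard ≤ j ∧
      Nat.card Q = r ^ j ∧ Q ≤ fixC τ t ∧ ∀ y ∈ Q, ∃ n, y ^ r ^ n = 1 := by
  have := finite_W hp cs
  have O := ExcCore.os hp cs hk r ht F hτt hpos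
  have C := coordsL (k := k) hp cs hk r
  have H := tow (k := k) hp cs hk r
  obtain ⟨S, hS⟩ : ∃ S : Set (Fin l → ℤ), S = {a | a ∈ Sx cs hp.isCartan (ch hp) t ∧ 0 ≤ a} := ⟨_, rfl⟩
  have hSp : S ⊆ RGD.Pos cs hp.isCartan := by
    rw [hS]
    exact fun a ha => ⟨ha.1.1, ha.2⟩
  have h1 := card_fixed hp cs hk he hτ F S.ncard S rfl hSp (by
      rintro x hx y hy z ⟨hz, i, j, hi, hj, rfl⟩
      rw [hS] at hx hy ⊢
      have e1 : i • x + j • y = (i : ℤ) • x + (j : ℤ) • y := by rw [natCast_zsmul, natCast_zsmul]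
      refine ⟨?_, ?_⟩
      · rw [e1] at hz ⊢
        exact O.comb x hx.1 y hy.1 i j hz
      · exact add_nonneg (nsmul_nonneg hx.2 i) (nsmul_nonneg hy.2 j)) (by
      intro a ha
      rw [hS] at ha ⊢
      exact ⟨O.gS a ha.1, hpos a ha.1 ha.2⟩)
  obtain ⟨Q, hQ⟩ : ∃ Q, Q = RGD.Sup (XX D l k) S ⊓ fixedSubgroup τ := ⟨_, rfl⟩
  rw [← hQ] at h1
  have hff : Finite ↥(fixedSubgroup τ) := Sig.finite_fixed hk he hτ
  have hfQ : Finite Q := Finite.of_injective (Subgroup.inclusion (hQ.trans_le inf_le_right))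
    (Subgroup.inclusion_injective _)
  have hpow : ∀ y ∈ Q, ∃ n, y ^ r ^ n = 1 := by
    intro y hy
    rw [hQ] at hy
    have h2 : y ∈ RGD.Sup (XX D l k) (RGD.Pos cs hp.isCartan) := RGD.Sup_mono hSp hy.1
    rw [← XL_eq (k := k) hp hk] at h2
    obtain ⟨c, hc⟩ := H.mem_Sup.1 h2
    obtain ⟨n, hn⟩ := (H.rgd c).isPGroup_Upos ⟨y, hc⟩
    exact ⟨n, congrArg Subtype.val hn⟩
  have hPQ : IsPGroup r Q := by
    rintro ⟨y, hy⟩
    obtain ⟨n, hn⟩ := hpow y hy
    exact ⟨n, Subtype.ext hn⟩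
  obtain ⟨j, hj⟩ := IsPGroup.iff_card.1 hPQ
  refine ⟨Q, j, ?_, hj, ?_, hpow⟩
  · rw [hj] at h1
    rw [← hS]
    exact (Nat.pow_le_pow_iff_right (Fact.out : r.Prime).one_lt).1 h1
  · intro y hy
    rw [hQ] at hy
    refine ⟨hy.2, ?_⟩
    have h3 : RGD.Sup (XX D l k) S ≤ Subgroup.centralizer {t} := by
      refine RGD.Sup_le fun a ha => ?_
      rw [hS] at ha
      exact X_le_centralizer C ht ha.1
    exact Subgroup.mem_centralizer_singleton_iff.1 (h3 hy.1)

end Chev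

/-- **The centralizer of a toral element has many `r`-elements.** -/
theorem dvd_card {D : ChevalleyDatum} {l : ℕ} {M : CoxeterMatrix (Fin l)} {hp : IsType D l M} {r n : ℕ}
    [Fact r.Prime] (hn : 0 < n) {K₀ : Type*} [Group K₀] [Finite K₀]
    {σ : MulAut ↥(D.group (AlgebraicClosure (ZMod r)))} {ι : K₀ →* ↥(D.group (AlgebraicClosure (ZMod r)))}
    (A : AmbS hp r n σ ι) {p : ℕ} (hpp : p.Prime) (hpr : p ≠ r) {z : K₀} (hz : orderOf z = p) :
    ∃ t ∈ TT D (AlgebraicClosure (ZMod r)), t ^ p = 1 ∧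
      r ^ {a | a ∈ Sx M.toCoxeterSystem hp.isCartan (ch hp) t ∧ 0 ≤ a}.ncard ∣
        Nat.card ↥(Subgroup.centralizer ({z} : Set K₀)) := by
  have hk : LocFin (AlgebraicClosure (ZMod r)) := locFin_of_isAlgebraic r _
  have hff : Finite ↥(fixedSubgroup σ) := Sig.finite_fixed hk hn A.frob
  have hzp : ι z ^ p = 1 := by rw [← map_pow, ← hz, pow_orderOf_eq_one, map_one]
  obtain ⟨z0, hz0⟩ := TorAll.exists_toral' hp r hpp hpr hzp
  obtain ⟨t, c, k', g', ht, hct, hck, hF1, hF2, hF3, hF4⟩ := exists_pair_conj hp M.toCoxeterSystem hk hn A.frob A.fr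
    (A.fix z) (z := z0⁻¹) (by rwa [inv_inv])
  have htp : t ^ p = 1 := by
    have e : t = c⁻¹ * ι z * c⁻¹⁻¹ := by rw [inv_inv, hct]
    rw [e, conj_pow, hzp, mul_one, mul_inv_cancel]
  obtain ⟨Q, j, hj1, hj2, hQ, hpow⟩ := exists_fix_group hp M.toCoxeterSystem hk hn ht hF1 hF2 hF3 hF4
  refine ⟨t, ht, htp, ?_⟩
  have hback : ∀ u ∈ fixC (MulAut.conj k' * σ) t, σ (c * u * c⁻¹) = c * u * c⁻¹ ∧
      (c * u * c⁻¹) * ι z = ι z * (c * u * c⁻¹) := by
    intro u hu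
    exact mem_fixC.1 ((fixEquiv hct hck ⟨u, hu⟩).2)
  let Q' : Subgroup ↥(D.group (AlgebraicClosure (ZMod r))) := Q.map (MulAut.conj c).toMonoidHom
  have hQ'c : Nat.card Q' = r ^ j := by
    rw [← hj2]
    exact (Nat.card_congr (Q.equivMapOfInjective _ (MulAut.conj c).injective).toEquiv).symm
  have hle : Q' ≤ ι.range := by
    rintro _ ⟨u, hu, rfl⟩
    obtain ⟨h1, h2⟩ := hback u (hQ hu)
    obtain ⟨a, s, hs, e⟩ := A.split _ h1
    have hσs : σ s = s := by
      have h3 := h1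
      rw [e, map_mul, A.fix] at h3
      exact mul_left_cancel h3
    have hfs : IsOfFinOrder s := by
      have h3 : IsOfFinOrder (⟨s, hσs⟩ : ↥(fixedSubgroup σ)) := isOfFinOrder_of_finite _
      exact (fixedSubgroup σ).subtype.isOfFinOrder h3
    obtain ⟨m, hm, hm1⟩ := RowsN.exists_coprime hp.inList hs hfs
    have h4 : (c * u * c⁻¹) ^ m ∈ ι.range := by
      rw [e]
      refine RowsN.pow_mem_of_split (N := ι.range) ⟨a, rfl⟩ ?_ hm1
      rintro _ ⟨b, rfl⟩
      obtain ⟨b', hb'⟩ := A.norm s hσs b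
      exact ⟨b', hb'.symm⟩
    obtain ⟨n, hn⟩ := hpow u hu
    have h5 : (c * u * c⁻¹) ^ r ^ n = 1 := by
      rw [conj_pow, hn, mul_one, mul_inv_cancel]
    exact zpow_gcd (hm.pow_right n) h4 h5
  have hmc : (Q'.comap ι).map ι = Q' := Subgroup.map_comap_eq_self hle
  have hcard : Nat.card ↥(Q'.comap ι) = r ^ j := by
    have h6 := Nat.card_congr ((Q'.comap ι).equivMapOfInjective ι A.inj).toEquiv
    rw [hmc, hQ'c] at h6
    exact h6
  have hcen : Q'.comap ι ≤ Subgroup.centralizer ({z} : Set K₀) := by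
    intro a ha
    rw [Subgroup.mem_centralizer_singleton_iff]
    apply A.inj
    rw [map_mul, map_mul]
    obtain ⟨u, hu, e⟩ := ha
    have h6 := (hback u (hQ hu)).2
    have h7 : c * u * c⁻¹ = ι a := e
    rwa [h7] at h6
  refine (pow_dvd_pow r hj1).trans ?_
  rw [← hcard]
  exact Subgroup.card_dvd_of_le hcen

/-! ### the count in `F₄` -/

/-- the positive roots of `F₄` modulo three -/
def lit4 : List (List ℕ) :=
  (List.range 24).map fun r => (List.range 4).map fun i => (rt chevF4 (24 + r) i % 3).toNat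

theorem dfs4 : dfs 6 4 true (lit4.map fun v => (0, v)) = true := by decide +kernel

theorem len4 : ∀ e ∈ (lit4.map fun v => ((0 : ℕ), v)), e.2.length ≤ 4 := by decide +kernel

theorem pos4 : ((List.range 24).all fun r => (List.range 4).all fun i => decide (0 ≤ rt chevF4 (24 + r) i)) = true := by
  decide +kernel

theorem card_pos {k : Type u} [Field k] (hk : LocFin k) (r : ℕ) [Fact r.Prime] [CharP k r]
    {t : ↥(chevF4.group k)} (ht : t ∈ TT chevF4 k) (h3 : t ^ 3 = 1) :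
    6 ≤ {a | a ∈ Sx (CoxeterMatrix.F₄).toCoxeterSystem (RowsUntw.f4T).isCartan (ch RowsUntw.f4T) t ∧ 0 ≤ a}.ncard := by
  have hfW := finite_W RowsUntw.f4T (CoxeterMatrix.F₄).toCoxeterSystem
  obtain ⟨φ, h0, hadd, hφ, h3⟩ := exists_phi RowsUntw.f4T (CoxeterMatrix.F₄).toCoxeterSystem hk r ht h3
  obtain ⟨c, hc3, hc, -⟩ := exists_c h0 hadd h3
  obtain ⟨S, hSm⟩ := exists_fin RowsUntw.f4T (CoxeterMatrix.F₄).toCoxeterSystem t
  have h9 := dfs_sound 6 c hc3 4 true (lit4.map fun v => (0, v)) 0 dfs4 len4 (Or.inl rfl)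
  unfold lit4 at h9
  rw [List.map_map] at h9
  have h12 := card_ge RowsUntw.f4T (CoxeterMatrix.F₄).toCoxeterSystem (fun v => φ v = 1)
    (fun v hv => neg_phi h0 hadd hv) c
    (fun r _ hr => hc _ hr) (m := 4) le_rfl ((List.range 24).map (24 + ·)) (by decide +kernel) (by decide +kernel)
    (by
      intro r hr i hi
      obtain ⟨s, hs, rfl⟩ := List.mem_map.1 hr
      exact of_decide_eq_true (List.all_eq_true.1 (List.all_eq_true.1 pos4 s hs) i (List.mem_range.2 hi)))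
    (by intro r _ i h1 h2; omega) (thr := 6) (by rw [List.map_map]; exact h9) S
    (fun a ha hpa => (hSm a).2 ⟨ha, by rw [hφ a ha]; exact hpa⟩)
  classical
  have hset : {a | a ∈ Sx (CoxeterMatrix.F₄).toCoxeterSystem (RowsUntw.f4T).isCartan (ch RowsUntw.f4T) t ∧ 0 ≤ a} =
      ((S.filter fun a => 0 ≤ a : Finset (Fin 4 → ℤ)) : Set (Fin 4 → ℤ)) := by
    ext a
    rw [Finset.mem_coe, Finset.mem_filter, hSm]
    rfl
  rw [hset, Set.ncard_coe_finset]
  have hneg : ∀ a ∈ S, -a ∈ S := by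
    intro a ha
    have h1 := (hSm a).1 ha
    refine (hSm _).2 ⟨h1.1.neg, ?_⟩
    rw [hφ _ h1.1.neg]
    exact neg_phi h0 hadd (by rw [← hφ a h1.1]; exact h1.2)
  have hsub : S ⊆ (S.filter fun a => 0 ≤ a) ∪ (S.filter fun a => 0 ≤ a).image (fun a => -a) := by
    intro a ha
    rw [Finset.mem_union]
    rcases ((hSm a).1 ha).1.pos_or_neg with h1 | h1
    · exact Or.inl (Finset.mem_filter.2 ⟨ha, h1⟩)
    · refine Or.inr (Finset.mem_image.2 ⟨-a, Finset.mem_filter.2 ⟨hneg a ha, neg_nonneg.2 h1⟩, neg_neg a⟩)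
  have h1 := (Finset.card_le_card hsub).trans (Finset.card_union_le _ _)
  have h2 := Finset.card_image_le (s := S.filter fun a => 0 ≤ a) (f := fun a : Fin 4 → ℤ => -a)
  omega

/-- **Elements of order three of `F₄(2)`.** -/
theorem f4_two {K : Type u} [Group K] [Finite K] (h : H226.KList.FFour 2 K) {z : K} (hz : orderOf z = 3) :
    2 ^ 6 ∣ Nat.card ↥(Subgroup.centralizer ({z} : Set K)) := by
  obtain ⟨F, hF, hfF, hcard, ⟨e⟩⟩ := h
  have : Fact (Nat.Prime 2) := ⟨Nat.prime_two⟩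
  have : CharP F 2 := charP_of_card_eq_prime_pow (p := 2) (f := 1) (by rw [hcard]; norm_num)
  obtain ⟨σ, ι, A⟩ := ambS_group (F := F) (r := 2) RowsUntw.f4T (n := 1) (by rw [Nat.card_eq_fintype_card, hcard]; norm_num)
  have hfin : Finite ↥(chevF4.group F) := inferInstance
  have hz' : orderOf (e z) = 3 := by rw [MulEquiv.orderOf_eq, hz]
  obtain ⟨t, ht, ht3, hdvd⟩ := dvd_card Nat.one_pos A Nat.prime_three (by norm_num) hz'
  have h6 := card_pos (locFin_of_isAlgebraic 2 _) 2 ht ht3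
  have h1 := (pow_dvd_pow 2 h6).trans hdvd
  have h2 : Nat.card ↥(Subgroup.centralizer ({z} : Set K)) = Nat.card ↥(Subgroup.centralizer ({e z} : Set _)) := by
    refine Nat.card_congr (e.toEquiv.subtypeEquiv fun y => ?_)
    rw [Subgroup.mem_centralizer_singleton_iff, Subgroup.mem_centralizer_singleton_iff]
    show y * z = z * y ↔ e y * e z = e z * e y
    rw [← map_mul, ← map_mul]
    exact e.injective.eq_iff.symm
  rw [h2]
  exact h1

end Cfsg.Agent.H64.CentTwo
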